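import Cfsg.Agent.R2.H27S.Cart

/-!
# Table `DFour` (S5934, box S)
-/

set_option autoImplicit false
set_option maxRecDepth 20000

namespace Cfsg.Agent.R2.H27S.TabDFour

open Cfsg.Lie Cfsg.Agent.R2.H27S.Tab Cfsg.Agent.R2.H27S.ESeven Cfsg.Agent.R2.H27S.Cart

/-- base -/
def bDFour : Fin 4 → ℕ := ![78, 69, 73, 66]

/-- positive roots -/
def pcDFour : List (ℕ × (Fin 4 → ℤ)) := [(66, ![0, 0, 0, 1]),
  (69, ![0, 1, 0, 0]),
  (70, ![0, 1, 0, 1]),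
  (73, ![0, 0, 1, 0]),
  (74, ![0, 1, 1, 0]),
  (75, ![0, 1, 1, 1]),
  (78, ![1, 0, 0, 0]),
  (79, ![1, 1, 0, 0]),
  (80, ![1, 1, 0, 1]),
  (83, ![1, 1, 1, 0]),
  (84, ![1, 1, 1, 1]),
  (87, ![1, 2, 1, 1])]

/-- functionals -/
def flDFour : List ((Fin 7 → ℤ) × ℤ) := [(![-2, 0, 0, 0, 0, -2, -2], 0)]

/-- left inverse -/
def liDFour : Fin 4 → Fin 7 → ℤ := ![![0, 1, 0, 0, 0, 0, 0], ![0, 0, 0, 1, 0, 0, 0], ![0, 0, 1, 0, 0, 0, 0], ![0, 0, 0, 0, 1, 0, 0]]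

theorem tab : Tab (Cfsg.Agent.Nodes.TypeD.A 2) bDFour pcDFour flDFour liDFour 1 where
  blt := by decide +kernel
  car := by decide +kernel
  D0 := by decide +kernel
  linv := by decide +kernel
  pc1 := by decide +kernel
  fl := by decide +kernel
  com := by decide +kernel
  nd := by decide +kernel

end Cfsg.Agent.R2.H27S.TabDFour
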