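import Cfsg.Agent.R2.H27S.Cart

/-!
# Table `TOne` (S5934, box S)
-/

set_option autoImplicit false
set_option maxRecDepth 20000

namespace Cfsg.Agent.R2.H27S.TabTOne

open Cfsg.Lie Cfsg.Agent.R2.H27S.Tab Cfsg.Agent.R2.H27S.ESeven Cfsg.Agent.R2.H27S.Cart

/-- base -/
def bTOne : Fin 3 → ℕ := ![63, 92, 125]

/-- positive roots -/
def pcTOne : List (ℕ × (Fin 3 → ℤ)) := [(63, ![1, 0, 0]),
  (92, ![0, 1, 0]),
  (125, ![0, 0, 1])]

/-- functionals -/
def flTOne : List ((Fin 7 → ℤ) × ℤ) := [(![-2, 2, 0, 2, -2, -1, 0], 0), (![-2, -2, 2, 1, 0, -1, 0], 0)]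

/-- left inverse -/
def liTOne : Fin 3 → Fin 7 → ℤ := ![![18, -5, 4, -10, -19, -28, 115], ![-46, 0, -23, 0, 23, 46, 0], ![28, 5, 19, 10, -4, -18, 0]]

theorem tab : Tab (cO 3) bTOne pcTOne flTOne liTOne 115 where
  blt := by decide +kernel
  car := by decide +kernel
  D0 := by decide +kernel
  linv := by decide +kernel
  pc1 := by decide +kernel
  fl := by decide +kernel
  com := by decide +kernel
  nd := by decide +kernel

end Cfsg.Agent.R2.H27S.TabTOne
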